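import Mathlib
import Cfsg.Agent.NG.TitCode
import Cfsg.Agent.Spor.NM.Extra
import Cfsg.Agent.Chev.TwoPk

/-! # Automorphisms of the amalgam of the Tits group -/

set_option autoImplicit false
set_option maxRecDepth 100000
set_option synthInstance.maxSize 100000
set_option synthInstance.maxHeartbeats 1000000

namespace Cfsg.Agent.QF

open Cfsg Subgroup Cfsg.Agent.Spor Cfsg.Agent.Rec Cfsg.Agent.NG Cfsg.Agent.NG.TP Cfsg.Agent.Chev

variable {K : Type} [Group K] [Finite K] {z a g gi f fi x b m : K}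

/-- Facts about the centraliser `⟨g, f, b⟩` of a 2-central involution. -/
structure TitsF (z a g f x b : K) : Prop where
  card : Nat.card (clos [g, f, b]) = 10240
  cz : ∀ u ∈ clos [g, f, b], u * z = z * u
  am : a ∈ clos [g, f, b]
  zS : ∀ u ∈ clos [g, f, b], u * g = g * u → u * (f * b * f⁻¹) = f * b * f⁻¹ * u → u = 1 ∨ u = z
  nf : ∀ u ∈ clos [g, f, b], u * f = f * f * u → (u = g ∨ u = g * z) ∨ (f * u * f⁻¹ = g ∨ f * u * f⁻¹ = g * z) ∨
    (f * f * u * (f * f)⁻¹ = g ∨ f * f * u * (f * f)⁻¹ = g * z) ∨ (f⁻¹ * u * f⁻¹⁻¹ = g ∨ f⁻¹ * u * f⁻¹⁻¹ = g * z) ∨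
    ((f * f)⁻¹ * u * (f * f)⁻¹⁻¹ = g ∨ (f * f)⁻¹ * u * (f * f)⁻¹⁻¹ = g * z)
  nb : ∀ u ∈ clos [g, f, b], u * g = g * u → u * u = 1 → u * f * (u * f) * (u * f) * (u * f) * (u * f) = 1 →
    u * (f * u * f⁻¹) ≠ f * u * f⁻¹ * u → u = b ∨ u = x * b
  gz : ∀ c ∈ clos [g, f, b], c * (g * z) ≠ g * c
  z1 : z ≠ 1
  f1 : f ≠ 1
  f5 : f ^ 5 = 1
  gf : g * f = f * f * g
  c2 : g⁻¹ * f ^ 2 * g⁻¹⁻¹ = f
  c3 : g * f ^ 3 * g⁻¹ = f
  c4 : a * f ^ 4 * a⁻¹ = f
  bg : b * g = g * b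
  bb : b * b = 1
  bf : b * f * (b * f) * (b * f) * (b * f) * (b * f) = 1
  bn : b * (f * b * f⁻¹) ≠ f * b * f⁻¹ * b
  xw : x = f * b * f⁻¹ * b * f * b * f⁻¹ * f⁻¹ * b * f * b * f⁻¹ * b * f
  xf : x * f ≠ f * x

omit [Finite K] in
theorem Tits_facts (h : Sat relC [z, a, g, gi, f, fi, x, b]) (hN : 10240 ≤ Nat.card (clos [z, a, g, gi, f, fi, x, b])) :
    TitsF z a g f x b ∧ gi = g⁻¹ ∧ fi = f⁻¹ := by
  obtain ⟨_, _, _, _, _, _, _, _, h₀⟩ : ∃ z a g gi f fi x b : GL (Fin 11) (ZMod 2),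
      B11.C.RepL c8 [z, a, g, gi, f, fi, x, b] := ⟨_, _, _, _, _, _, _, _, B11.repL c8_ok⟩
  obtain ⟨C, r⟩ := presC.cod_of_card h₀ (h₀.sat relC_ok) rfl (card8 h₀) (by norm_num) h rfl hN
  have e : WC.map (evC A cL) = [2, 4, 7].map (nth A.one c8) := eq_of_beqL (by decide +kernel)
  have h1 : C.Lists C_t.dom (clos [g, f, b]) ∧ Nat.card (clos [g, f, b]) = 10240 :=
    (r.pick [2, 4, 7]).gen (e ▸ C_ok)
  have l := h1.1.cons Cod.listsL_nil
  have k : z ≠ 1 ∧ f ≠ 1 ∧ f * f * f * f * f = 1 ∧ g * f = f * f * g ∧ g⁻¹ * (f * f) * g⁻¹⁻¹ = f ∧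
      g * (f * f * f) * g⁻¹ = f ∧ a * (f * f * f * f) * a⁻¹ = f ∧ b * g = g * b ∧ b * b = 1 ∧
      b * f * (b * f) * (b * f) * (b * f) * (b * f) = 1 ∧ b * (f * b * f⁻¹) ≠ f * b * f⁻¹ * b ∧
      x = f * b * f⁻¹ * b * f * b * f⁻¹ * f⁻¹ * b * f * b * f⁻¹ * b * f ∧ x * f ≠ f * x ∧ gi = g⁻¹ ∧ fi = f⁻¹ ∧
      a ∈ clos [g, f, b] ∧ z * g = g * z ∧ z * f = f * z ∧ z * b = b * z := l.decide r (by decide +kernel)
  obtain ⟨k1, k2, k3, k4, k5, k6, k7, k8, k9, k10, k11, k12, k13, k14, k15, k16, k17, k18, k19⟩ := k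
  refine ⟨⟨h1.2, fun u hu => (commute_clos ?_ u hu).symm, k16, l.decide r (by decide +kernel),
    l.decide r (by decide +kernel), l.decide r (by decide +kernel), l.decide r (by decide +kernel), k1, k2, ?_, k4,
    ?_, ?_, ?_, k8, k9, k10, k11, k12, k13⟩, k14, k15⟩
  · simp only [List.forall_mem_cons, List.not_mem_nil, false_imp_iff, implies_true, and_true]
    exact ⟨k17, k18, k19⟩
  all_goals simp only [pow_succ, pow_zero, one_mul]; assumption

/-- An automorphism fixing `z` lies in `A`. -/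
theorem TitsF.mem (h : TitsF z a g f x b) (hC : ∀ t, t * z = z * t → t ∈ clos [g, f, b])
    (mz : m * z * m⁻¹ = x) (mg : m * g * m⁻¹ = f * f * b * (f * f)⁻¹ * (f * b * f⁻¹))
    {A : Subgroup (MulAut K)} (hI : ∀ k, MulAut.conj k ∈ A)
    (hfix : ∀ σ : MulAut K, σ g = g → σ (f * b * f⁻¹) = f * b * f⁻¹ → σ ∈ A)
    {η : MulAut K} (hη : η ∈ A) (ηz : η z = z) (ηf : η f = f) (ηg : η g = g) (ηb : η b = x * b)
    (σ : MulAut K) (hz : σ z = z) : σ ∈ A := by
  classical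
  have mg' : g ∈ clos [g, f, b] := mem_clos (by simp)
  have mf : f ∈ clos [g, f, b] := mem_clos (by simp)
  have mb : b ∈ clos [g, f, b] := mem_clos (by simp)
  have mC : ∀ σ : MulAut K, σ z = z → ∀ u ∈ clos [g, f, b], σ u ∈ clos [g, f, b] := fun σ hz u hu => hC _ (by
    conv_lhs => rw [← hz, ← map_mul, h.cz u hu, map_mul, hz])
  have s5 : ∀ σ : MulAut K, σ z = z → σ f = f → σ g = g ∨ σ g = g * z → σ b = b → σ ∈ A := fun σ hz hf hg hb => by
    refine hfix σ (hg.resolve_right fun hg => ?_) (by simp only [map_mul, map_inv, hf, hb])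
    have hx : σ x = x := by
      conv_lhs => rw [h.xw]
      simp only [map_mul, map_inv, hf, hb]
      exact h.xw.symm
    have e1 : σ m * z * (σ m)⁻¹ = m * z * m⁻¹ := by rw [mz, ← hx, ← mz, map_mul, map_mul, map_inv, hz]
    have e2 : σ m * (g * z) * (σ m)⁻¹ = m * g * m⁻¹ := by
      rw [← hg, ← map_inv, ← map_mul, ← map_mul, mg]
      simp only [map_mul, map_inv, hf, hb]
    refine h.gz (m⁻¹ * σ m) (hC _ ?_) ?_
    · calc m⁻¹ * σ m * z = m⁻¹ * (σ m * z * (σ m)⁻¹) * σ m := by group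
        _ = _ := by rw [e1]; group
    · calc m⁻¹ * σ m * (g * z) = m⁻¹ * (σ m * (g * z) * (σ m)⁻¹) * σ m := by group
        _ = _ := by rw [e2]; group
  have s4 : ∀ σ : MulAut K, σ z = z → σ f = f → σ g = g ∨ σ g = g * z → σ ∈ A := fun σ hz hf hg => by
    have hb := mC σ hz b mb
    have e : σ b * σ g = σ g * σ b := by rw [← map_mul, h.bg, map_mul]
    have k := h.nb _ hb (by
        rcases hg with hg | hg <;> rw [hg] at e
        · exact e
        · rw [mul_assoc g, ← h.cz _ hb, ← mul_assoc, ← mul_assoc] at e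
          exact mul_right_cancel e)
      (by rw [← map_mul, h.bb, map_one]) (by simpa only [map_mul, map_one, hf] using congrArg σ h.bf)
      fun e => h.bn (σ.injective (by simpa only [map_mul, map_inv, hf] using e))
    rcases k with k | k
    · exact s5 σ hz hf hg k
    · have i : ∀ {u v}, η u = v → η⁻¹ v = u := fun e => e ▸ η.symm_apply_apply _
      refine (mul_mem_cancel_left (inv_mem hη)).1 (s5 (η⁻¹ * σ) ?_ ?_ ?_ ?_) <;> rw [MulAut.mul_apply]
      · rw [hz, i ηz]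
      · rw [hf, i ηf]
      · exact hg.imp (fun e => by rw [e, i ηg]) fun e => by rw [e, map_mul, i ηg, i ηz]
      · rw [k, i ηb]
  have cj : ∀ σ : MulAut K, σ z = z → ∀ k ∈ clos [g, f, b], (MulAut.conj k * σ) z = z := fun σ hz k hk => by
    rw [MulAut.mul_apply, hz, MulAut.conj_apply, h.cz k hk, mul_inv_cancel_right]
  have s3 : ∀ σ : MulAut K, σ z = z → σ f = f → σ ∈ A := fun σ hz hf => by
    have q : ∀ k ∈ clos [g, f, b], k * f = f * k → k * σ g * k⁻¹ = g ∨ k * σ g * k⁻¹ = g * z → σ ∈ A :=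
      fun k hk e hg => (mul_mem_cancel_left (hI k)).1 (s4 _ (cj σ hz k hk)
        (by rw [MulAut.mul_apply, hf, MulAut.conj_apply, e, mul_inv_cancel_right]) hg)
    rcases h.nf _ (mC σ hz g mg') (by simpa only [map_mul, hf] using congrArg σ h.gf) with k | k | k | k | k
    exacts [s4 σ hz hf k, q _ mf rfl k, q _ (mul_mem mf mf) (by group) k, q _ (inv_mem mf) (by group) k,
      q _ (inv_mem (mul_mem mf mf)) (by group) k]
  have : Fact (Nat.Prime 5) := ⟨by norm_num⟩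
  have ho : orderOf f = 5 := orderOf_eq_prime h.f5 h.f1
  obtain ⟨u, hu, k⟩ := NM.exists_conj_mem_of_index (S := zpowers f) (zpowers_le.2 mf) (p := 5) (by norm_num) (m := 2048)
    (by rw [h.card, Nat.card_zpowers, ho]) (by norm_num) (mC σ hz f mf) (k := 1) (by rw [pow_one, ← map_pow, h.f5, map_one])
  obtain ⟨i, hi, k⟩ := Finset.mem_image.1 (mem_zpowers_iff_mem_range_orderOf.1 k)
  rw [ho, Finset.mem_range] at hi
  have q : ∀ c ∈ clos [g, f, b], c * f ^ i * c⁻¹ = f → σ ∈ A := fun c hc e =>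
    (mul_mem_cancel_left (hI (c * u))).1 (s3 _ (cj σ hz _ (mul_mem hc hu)) (by
      rw [MulAut.mul_apply, MulAut.conj_apply]
      conv_rhs => rw [← e, k]
      group))
  interval_cases i
  · exact absurd (by simpa using k.symm) h.f1
  exacts [q 1 (one_mem _) (by group), q _ (inv_mem mg') h.c2, q _ mg' h.c3, q _ h.am h.c4]

omit [Finite K] in
/-- In rank two with a self-normalising Sylow subgroup, proper overgroups of it are maximal. -/
theorem Tits_max (A : ParSys 2 K) {i j : A.I} (hall : ∀ k, k = i ∨ k = j) (h0 : A.P ∅ ≤ A.U) {M N : Subgroup K}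
    (h1 : (A.U : Subgroup K) ≤ M) (hne : ¬ M ≤ A.U) (h2 : M ≤ N) (h3 : N ≠ ⊤) : N ≤ M := by
  have h4 := (A.P_empty.ge.trans h0).trans h1
  obtain ⟨T, rfl⟩ := A.exists_eq N (h4.trans h2)
  obtain ⟨S, rfl⟩ := A.exists_eq M h4
  obtain ⟨s, hs⟩ := S.eq_empty_or_nonempty.resolve_left (by rintro rfl; exact hne h0)
  obtain ⟨t, ht⟩ := (Set.ne_univ_iff_exists_notMem T).1 (by rintro rfl; exact h3 A.P_univ)
  have hs' := A.le_iff.1 h2 hs
  refine A.le_iff.2 fun k hk => ?_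
  rcases hall k with rfl | rfl <;> rcases hall s with rfl | rfl <;> rcases hall t with rfl | rfl <;>
    first | exact hs | exact absurd hk ht | exact absurd hs' ht

end Cfsg.Agent.QF
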